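import Cfsg.Agent.H288.E8L.Iface2
import Cfsg.Agent.H857.E8L.Rep

/-!
# A parity functional gives an element of the centraliser (`inv`, helper434)
-/

set_option autoImplicit false
set_option linter.unusedSectionVars false
set_option maxRecDepth 100000

namespace Cfsg.Agent.H434.E8L

open CoxeterSystem Cfsg Cfsg.Lie Cfsg.Lie.ChevalleyDatum
open Cfsg.Agent.ChevalleyStructure Cfsg.Agent.ChevalleyStructure.Elts Cfsg.Agent.ChevalleyStructure.CoxeterGeom
  Cfsg.Agent.ChevalleyStructure.CoxeterGeomTypes Cfsg.Agent.ChevalleyStructure.RootVec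
  Cfsg.Agent.ChevalleyStructure.RootVecTab
open Cfsg.Agent.Tits.Roots Cfsg.Agent.Tits.Core Cfsg.Agent.Nodes Cfsg.Agent.Nodes.Reps Cfsg.Agent.Nodes.BNOf
  Cfsg.Agent.Nodes.RGDChev
open Cfsg.Agent.GpExc.Field Cfsg.Agent.BpExc.TowChev Cfsg.Agent.H129.TorusChar
open Cfsg.Agent.KFacts.RgdChevCoord
open Cfsg.Agent.H942.E8Tab Cfsg.Agent.H942.E8Alc Cfsg.Agent.H942.CB Cfsg.Agent.H944.Tab Cfsg.Agent.H944.Kac
open Cfsg.Agent.H288.E8L Cfsg.Agent.H943

theorem frb_TT {t : GK} (ht : t ∈ TT chevE8 K8) : frb8 t ∈ TT chevE8 K8 := emb_T e8T (frobenius K8 3) ⟨t, ht, rfl⟩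

theorem cX_frb {t : GK} (ht : t ∈ TT chevE8 K8) (x : Q8) : cX e8T (frb8 t) x = cX e8T t x ^ 3 := by
  have h1 : IsMC fun x : Q8 => cX e8T t x ^ 3 :=
    ⟨by
      show cX e8T t 0 ^ 3 = 1
      rw [(isMC_cX e8T ht).zero, one_pow], fun a b => by
      show cX e8T t (a + b) ^ 3 = _
      rw [(isMC_cX e8T ht).add, mul_pow]⟩
  refine (isMC_cX e8T (frb_TT ht)).ext h1 (fun i => ?_) x
  have hr : Rt (sr i) := isRoot_sr cs8 e8T.isCartan i
  obtain ⟨s, hs⟩ := exists_idx hr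
  show cX e8T (frb8 t) (sr i) = cX e8T t (sr i) ^ 3
  rw [cX_root e8T cs8 (frb_TT ht) hr, cX_root e8T cs8 ht hr, ← hs]
  show ch e8T (vec chevE8 8 s) (emb e8T.inList (frobenius K8 3) t) = _
  rw [emb_ch e8T (frobenius K8 3) s.2 ht, frobenius_def]

theorem fz_zero' (c : List ℤ) : fz c 0 = 0 := by unfold fz; simp

theorem neg_one_zpow_congr {K : Type*} [Field K] {a b : ℤ} (h : (2 : ℤ) ∣ a - b) : (-1 : K) ^ a = (-1 : K) ^ b := by
  obtain ⟨c, hc⟩ := h
  have h1 : a = 2 * c + b := by omega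
  have h2 : (-1 : K) ≠ 0 := neg_ne_zero.2 one_ne_zero
  rw [h1, zpow_add₀ h2, zpow_mul]
  norm_num

theorem neg_one_zpow_cube {K : Type*} [Field K] (a : ℤ) : ((-1 : K) ^ a) ^ 3 = (-1 : K) ^ a := by
  have h : ((-1 : K) ^ a) ^ 3 = (-1 : K) ^ (a * 3) := by rw [zpow_mul]; norm_cast
  rw [h]
  exact neg_one_zpow_congr ⟨a, by ring⟩

theorem inv : INV := by
  intro W w w0 n n0 z e hn hn0 hneg hnz he hodd hw hP
  have h1 : (-1 : K8) ≠ 0 := neg_ne_zero.2 one_ne_zero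
  have hmc : IsMC fun x : Q8 => (-1 : K8) ^ fz e x := ⟨by
    show (-1 : K8) ^ fz e 0 = 1
    rw [fz_zero', zpow_zero], fun a b => by
    show (-1 : K8) ^ fz e (a + b) = _
    rw [fz_add, zpow_add₀ h1]⟩
  obtain ⟨s, hs, hsx⟩ := exists_cX e8T invC_E8 one_ne_zero hmc (fun i => ⟨(-1 : K8) ^ fz e (sr i), pow_one _⟩)
  -- commuting with representatives
  have hcom : ∀ (v : W8) (m : GK), Rep v m → (∀ x : Q8, (2 : ℤ) ∣ fz e (act8 v x) - fz e x) → m * s * m⁻¹ = s := by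
    intro v m hm hv
    have hm' : m * s * m⁻¹ ∈ TT chevE8 K8 := (Subgroup.mem_normalizer_iff.1 hm.mem_normalizer s).1 hs
    refine cX_inj e8T hm' hs fun i => ?_
    have h2 := cX_rp e8T cs8 locFin8 3 hm hs (act8 v⁻¹ (sr i))
    have h3 : act8 v (act8 v⁻¹ (sr i)) = sr i := act8_inv v (sr i)
    have h4 : cX e8T (m * s * m⁻¹) (sr i) = cX e8T s (act8 v⁻¹ (sr i)) := by
      rw [← h2]
      exact congrArg _ h3.symm
    rw [h4, hsx, hsx]
    have h5 := hv (act8 v⁻¹ (sr i))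
    rw [h3] at h5
    exact (neg_one_zpow_congr h5).symm
  have hns := hcom w n hn hw
  have hn0s := hcom w0 n0 hn0 (fun x => by
    rw [hneg]
    have h2 : fz e (-x) = - fz e x := by
      have h3 := fz_add e x (-x)
      rw [add_neg_cancel, fz_zero'] at h3
      omega
    rw [h2]
    exact ⟨-fz e x, by ring⟩)
  have hfs : frb8 s = s := by
    refine cX_inj e8T (frb_TT hs) hs fun i => ?_
    rw [cX_frb hs, hsx, neg_one_zpow_cube]
  have hfz : frb8 z = z * n := by rw [hnz]; group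
  obtain ⟨g, hg⟩ := Cfsg.Agent.H857.E8L.fix (z * s * z⁻¹) (by
    rw [map_mul, map_mul, map_inv, hfs, hfz]
    calc z * n * s * (z * n)⁻¹ = z * (n * s * n⁻¹) * z⁻¹ := by group
      _ = z * s * z⁻¹ := by rw [hns])
  refine ⟨g, s, ?_, hg, ?_, ?_⟩
  · rintro rfl
    rw [map_one] at hg
    have hs1 : s = 1 := by
      have h2 : z * s = z := by
        have h3 := mul_inv_eq_one.1 hg.symm
        exact h3
      exact mul_eq_left.1 h2
    obtain ⟨i, hi, hie⟩ := hodd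
    have h2 := hsx (sr ⟨i, hi⟩)
    rw [hs1, cX_one, fz_sr] at h2
    have h3 : (-1 : K8) ^ e.getD i 0 = -1 := by
      have h4 : (2 : ℤ) ∣ e.getD i 0 - 1 := by omega
      rw [neg_one_zpow_congr h4, zpow_one]
    have h5 : (1 : K8) = -1 := h2.trans h3
    have h6 : ((2 : ℕ) : K8) = 0 := by
      push_cast
      linear_combination h5
    rw [CharP.cast_eq_zero_iff K8 3] at h6
    omega
  · intro v hv
    exact comm_of_char hs (fun μ hμ => by
      rw [hsx]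
      have h2 := neg_one_zpow_congr (K := K8) (a := fz e μ) (b := 0) (by rw [sub_zero]; exact hP μ hμ)
      rw [h2, zpow_zero]) hv
  · calc s * n0 = (n0 * s * n0⁻¹) * n0 := by rw [hn0s]
      _ = n0 * s := by group

end Cfsg.Agent.H434.E8L
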